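import Mathlib
import Cfsg.Agent.Lib.Embed.Basic
import Cfsg.Agent.Lib.ElemOrders.Basic
import Cfsg.Agent.Lib.Quad.Types

/-! The quadratic extension of finite fields: Hermitian form, its trace forms and norm form. -/

set_option autoImplicit false
set_option linter.unusedSectionVars false
set_option linter.unusedSimpArgs false

namespace Cfsg.Agent.Lib.Embed

open Matrix Module Cfsg.Agent.Lib.Quad

section Alg

variable {K F : Type*} [Field K] [Fintype K] [Field F] [Fintype F] {q : ℕ}

theorem finrank_of_card [Algebra F K] (hK : Fintype.card K = q ^ 2) (hF : Fintype.card F = q) : finrank F K = 2 := by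
  have h3 := Module.card_eq_pow_finrank (K := F) (V := K)
  rw [hK, hF] at h3
  have hq : 2 ≤ q := by rw [← hF]; exact Fintype.one_lt_card
  exact (Nat.pow_right_injective hq h3).symm

theorem exists_algebra (hK : Fintype.card K = q ^ 2) (hF : Fintype.card F = q) : ∃ _ : Algebra F K, finrank F K = 2 := by
  obtain ⟨p, hp⟩ := CharP.exists F
  haveI : Fact p.Prime := ⟨CharP.char_is_prime F p⟩
  obtain ⟨K₀, _, _, _, h2, hc⟩ := Cfsg.Agent.Lib.ElemOrders.exists_field_ext (F := F) p 2 (by norm_num)
  have e : K₀ ≃+* K := FiniteField.ringEquivOfCardEq (by rw [hc, hK, hF])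
  letI alg : Algebra F K := (e.toRingHom.comp (algebraMap F K₀)).toAlgebra
  exact ⟨alg, finrank_of_card hK hF⟩

/-- An algebra structure for which a given anisotropic binary form acquires a root. -/
theorem exists_algebra_root (hK : Fintype.card K = q ^ 2) (hF : Fintype.card F = q) (a b : F)
    (hab : ∀ z₁ z₂ : F, z₁ ^ 2 + a * z₁ * z₂ + b * z₂ ^ 2 = 0 → z₁ = 0 ∧ z₂ = 0) :
    ∃ (_ : Algebra F K) (θ : K), finrank F K = 2 ∧ θ ^ 2 + algebraMap F K a * θ + algebraMap F K b = 0 := by
  classical
  open Polynomial in
  let P : F[X] := X ^ 2 + C a * X + C b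
  have hPdeg : P.natDegree = 2 := by
    simp only [P]
    compute_degree!
  have hPmonic : P.Monic := by
    simp only [P]
    monicity!
  have hnr : ∀ t : F, ¬ P.IsRoot t := by
    intro t ht
    have h1 : t ^ 2 + a * t * 1 + b * 1 ^ 2 = 0 := by
      simp only [Polynomial.IsRoot, P, Polynomial.eval_add, Polynomial.eval_mul, Polynomial.eval_pow, Polynomial.eval_X, Polynomial.eval_C] at ht
      linear_combination ht
    exact one_ne_zero (hab t 1 h1).2
  have hirr : Irreducible P := by
    apply Polynomial.irreducible_of_degree_le_three_of_not_isRoot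
    · rw [hPdeg]; norm_num
    · exact hnr
  haveI : Fact (Irreducible P) := ⟨hirr⟩
  let L := AdjoinRoot P
  have hP0 : P ≠ 0 := hirr.ne_zero
  have hfrL : finrank F L = 2 := by
    rw [(AdjoinRoot.powerBasis hP0).finrank]
    simpa using hPdeg
  haveI : Module.Finite F L := (AdjoinRoot.powerBasis hP0).finite
  haveI : Finite L := Module.finite_of_finite F
  letI : Fintype L := Fintype.ofFinite L
  have hcL : Fintype.card L = q ^ 2 := by
    rw [Module.card_eq_pow_finrank (K := F) (V := L), hfrL, hF]
  have e : L ≃+* K := FiniteField.ringEquivOfCardEq (by rw [hcL, hK])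
  letI alg : Algebra F K := (e.toRingHom.comp (algebraMap F L)).toAlgebra
  refine ⟨alg, e (AdjoinRoot.root P), finrank_of_card hK hF, ?_⟩
  have h1 : Polynomial.eval₂ (AdjoinRoot.of P) (AdjoinRoot.root P) P = 0 := AdjoinRoot.eval₂_root P
  simp only [P, Polynomial.eval₂_add, Polynomial.eval₂_mul, Polynomial.eval₂_pow, Polynomial.eval₂_X, Polynomial.eval₂_C] at h1
  have h2 := congrArg e h1
  simp only [map_add, map_mul, map_pow, map_zero] at h2
  exact h2

end Alg

section Herm

variable {K F : Type*} [Field K] [Fintype K] [Field F] [Fintype F] [Algebra F K] {q : ℕ}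

theorem pow_pow_eq (hK : Fintype.card K = q ^ 2) (x : K) : (x ^ q) ^ q = x := by
  rw [← pow_mul, ← sq, ← hK, FiniteField.pow_card]

theorem add_pow_eq (hF : Fintype.card F = q) (x y : K) : (x + y) ^ q = x ^ q + y ^ q := by
  subst hF
  exact map_add (FiniteField.frobeniusAlgHom F K) x y

theorem sum_pow_eq (hF : Fintype.card F = q) {ι : Type*} (s : Finset ι) (f : ι → K) :
    (∑ i ∈ s, f i) ^ q = ∑ i ∈ s, f i ^ q := by
  subst hF
  exact map_sum (FiniteField.frobeniusAlgHom F K) f s

theorem algebraMap_pow_eq (hF : Fintype.card F = q) (c : F) : (algebraMap F K c) ^ q = algebraMap F K c := by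
  subst hF
  rw [← map_pow, FiniteField.pow_card]

theorem neg_pow_eq (hF : Fintype.card F = q) (x : K) : (-x) ^ q = -(x ^ q) := by
  have h0 : q ≠ 0 := by
    rw [← hF]
    exact Fintype.card_ne_zero
  have h1 := add_pow_eq hF x (-x)
  rw [add_neg_cancel, zero_pow h0] at h1
  linear_combination -h1

theorem q_ne_zero (hF : Fintype.card F = q) : q ≠ 0 := by
  rw [← hF]
  exact Fintype.card_ne_zero

theorem tr_eq (hK : Fintype.card K = q ^ 2) (hF : Fintype.card F = q) (x : K) :
    algebraMap F K (Algebra.trace F K x) = x + x ^ q := by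
  rw [FiniteField.algebraMap_trace_eq_sum_pow, finrank_of_card hK hF, Finset.sum_range_succ, Finset.sum_range_one,
    Nat.card_eq_fintype_card, hF]
  simp

theorem nm_eq (hK : Fintype.card K = q ^ 2) (hF : Fintype.card F = q) (x : K) :
    algebraMap F K (Algebra.norm F x) = x * x ^ q := by
  rw [FiniteField.algebraMap_norm_eq_prod_pow, finrank_of_card hK hF, Finset.prod_range_succ, Finset.prod_range_one,
    Nat.card_eq_fintype_card, hF]
  simp

theorem exists_pow_ne (hK : Fintype.card K = q ^ 2) (hF : Fintype.card F = q) : ∃ θ : K, θ ^ q ≠ θ := by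
  by_contra h
  push_neg at h
  have h1 : FiniteField.frobeniusAlgHom F K = 1 := by
    ext x
    subst hF
    exact h x
  have h2 := FiniteField.orderOf_frobeniusAlgHom F K
  rw [h1, orderOf_one, finrank_of_card hK hF] at h2
  norm_num at h2

/-- A non-zero element negated by the Frobenius map of the quadratic extension. -/
theorem exists_delta (hK : Fintype.card K = q ^ 2) (hF : Fintype.card F = q) : ∃ δ : K, δ ≠ 0 ∧ δ ^ q = -δ := by
  obtain ⟨θ, hθ⟩ := exists_pow_ne hK hF
  refine ⟨θ - θ ^ q, ?_, ?_⟩
  · intro h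
    exact hθ (sub_eq_zero.1 h).symm
  · have h1 : θ - θ ^ q = θ + -(θ ^ q) := sub_eq_add_neg _ _
    rw [h1, add_pow_eq hF, neg_pow_eq hF, pow_pow_eq hK]
    ring

theorem exists_trace_ne_zero : ∃ y : K, Algebra.trace F K y ≠ 0 := by
  obtain ⟨y, hy⟩ := Algebra.trace_surjective F K 1
  exact ⟨y, by rw [hy]; exact one_ne_zero⟩

variable {m : ℕ}

theorem herm_add_left (u u' v : Fin m → K) :
    Cfsg.hermForm m K q (u + u') v = Cfsg.hermForm m K q u v + Cfsg.hermForm m K q u' v := by
  simp only [Cfsg.hermForm, Pi.add_apply, ← Finset.sum_add_distrib, add_mul]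

theorem herm_smul_left (c : F) (u v : Fin m → K) :
    Cfsg.hermForm m K q (c • u) v = algebraMap F K c * Cfsg.hermForm m K q u v := by
  simp only [Cfsg.hermForm, Pi.smul_apply, Finset.mul_sum, Algebra.smul_def, mul_assoc]

theorem herm_add_right (hF : Fintype.card F = q) (u v v' : Fin m → K) :
    Cfsg.hermForm m K q u (v + v') = Cfsg.hermForm m K q u v + Cfsg.hermForm m K q u v' := by
  simp only [Cfsg.hermForm, Pi.add_apply, ← Finset.sum_add_distrib, add_pow_eq hF, mul_add]

theorem herm_smul_right (hF : Fintype.card F = q) (c : F) (u v : Fin m → K) :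
    Cfsg.hermForm m K q u (c • v) = algebraMap F K c * Cfsg.hermForm m K q u v := by
  simp only [Cfsg.hermForm, Pi.smul_apply, Finset.mul_sum, Algebra.smul_def, mul_pow, algebraMap_pow_eq hF]
  refine Finset.sum_congr rfl fun i _ => ?_
  ring

theorem herm_pow (hK : Fintype.card K = q ^ 2) (hF : Fintype.card F = q) (u v : Fin m → K) :
    Cfsg.hermForm m K q u v ^ q = Cfsg.hermForm m K q v u := by
  simp only [Cfsg.hermForm, sum_pow_eq hF, mul_pow, pow_pow_eq hK]
  refine Finset.sum_congr rfl fun i _ => ?_
  ring

/-- The `F`-bilinear form `Tr (δ h(u, v))`. -/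
noncomputable def trForm (hF : Fintype.card F = q) (δ : K) (m : ℕ) : LinearMap.BilinForm F (Fin m → K) :=
  LinearMap.mk₂ F (fun u v => Algebra.trace F K (δ * Cfsg.hermForm m K q u v))
    (fun a b c => by rw [herm_add_left, mul_add, map_add])
    (fun c a b => by
      rw [herm_smul_left, mul_left_comm, ← Algebra.smul_def, map_smul])
    (fun a b c => by rw [herm_add_right hF, mul_add, map_add])
    (fun c a b => by
      rw [herm_smul_right hF, mul_left_comm, ← Algebra.smul_def, map_smul])

theorem trForm_apply (hF : Fintype.card F = q) (δ : K) (u v : Fin m → K) :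
    trForm hF δ m u v = Algebra.trace F K (δ * Cfsg.hermForm m K q u v) := rfl

theorem trForm_nondeg (hK : Fintype.card K = q ^ 2) (hF : Fintype.card F = q) {δ : K} (hδ : δ ≠ 0) (u : Fin m → K)
    (h : ∀ v, trForm hF δ m u v = 0) : u = 0 := by
  classical
  by_contra hu
  obtain ⟨i, hi⟩ := Function.ne_iff.1 hu
  obtain ⟨y, hy⟩ := exists_trace_ne_zero (F := F) (K := K)
  apply hy
  have h1 := h (Pi.single i ((y / (δ * u i)) ^ q))
  rw [trForm_apply] at h1
  have h2 : Cfsg.hermForm m K q u (Pi.single i ((y / (δ * u i)) ^ q)) = u i * (y / (δ * u i)) := by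
    rw [Cfsg.hermForm, Finset.sum_eq_single i]
    · rw [Pi.single_eq_same, pow_pow_eq hK]
    · intro j _ hj
      rw [Pi.single_eq_of_ne hj, zero_pow (q_ne_zero hF), mul_zero]
    · simp
  rw [h2] at h1
  have h3 : δ * (u i * (y / (δ * u i))) = y := by
    have : u i ≠ 0 := hi
    field_simp
  rwa [h3] at h1

theorem trForm_alt (hK : Fintype.card K = q ^ 2) (hF : Fintype.card F = q) {δ : K} (hδ : δ ^ q = -δ) :
    (trForm hF δ m).IsAlt := by
  intro u
  rw [trForm_apply]
  apply (algebraMap F K).injective
  rw [tr_eq hK hF, mul_pow, hδ, herm_pow hK hF, map_zero]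
  ring

/-- The sum of the norms of the coordinates. -/
noncomputable def normSum (F : Type*) [Field F] [Algebra F K] (m : ℕ) (u : Fin m → K) : F :=
  ∑ i, Algebra.norm F (u i)

theorem algebraMap_normSum (hK : Fintype.card K = q ^ 2) (hF : Fintype.card F = q) (u : Fin m → K) :
    algebraMap F K (normSum F m u) = Cfsg.hermForm m K q u u := by
  rw [normSum, map_sum, Cfsg.hermForm]
  refine Finset.sum_congr rfl fun i _ => ?_
  rw [nm_eq hK hF]

theorem normSum_add (hK : Fintype.card K = q ^ 2) (hF : Fintype.card F = q) (u v : Fin m → K) :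
    normSum F m (u + v) = normSum F m u + normSum F m v + trForm hF 1 m u v := by
  apply (algebraMap F K).injective
  rw [map_add, map_add, algebraMap_normSum hK hF, algebraMap_normSum hK hF, algebraMap_normSum hK hF, trForm_apply,
    tr_eq hK hF, one_mul, herm_pow hK hF, herm_add_left, herm_add_right hF, herm_add_right hF]
  ring

theorem normSum_smul (hK : Fintype.card K = q ^ 2) (hF : Fintype.card F = q) (c : F) (u : Fin m → K) :
    normSum F m (c • u) = (c * c) • normSum F m u := by
  apply (algebraMap F K).injective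
  rw [algebraMap_normSum hK hF, herm_smul_left, herm_smul_right hF, smul_eq_mul, map_mul, map_mul,
    algebraMap_normSum hK hF]
  ring

/-- The norm form as a quadratic form. -/
noncomputable def normQF (hK : Fintype.card K = q ^ 2) (hF : Fintype.card F = q) (m : ℕ) :
    QuadraticForm F (Fin m → K) where
  toFun := normSum F m
  toFun_smul c u := normSum_smul hK hF c u
  exists_companion' := ⟨trForm hF 1 m, normSum_add hK hF⟩

@[simp] theorem normQF_apply (hK : Fintype.card K = q ^ 2) (hF : Fintype.card F = q) (u : Fin m → K) :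
    normQF hK hF m u = normSum F m u := rfl

theorem normQF_nondeg (hK : Fintype.card K = q ^ 2) (hF : Fintype.card F = q) : NondegQ (normQF (F := F) hK hF m) := by
  intro u h
  apply trForm_nondeg hK hF (δ := (1 : K)) one_ne_zero u
  intro v
  have := h v
  simp only [QuadraticMap.polar, normQF_apply, normSum_add hK hF] at this
  linear_combination this

theorem finrank_coord (hK : Fintype.card K = q ^ 2) (hF : Fintype.card F = q) :
    finrank F (Fin m → K) = 2 * m := by
  rw [Module.finrank_pi_fintype]
  simp [finrank_of_card hK hF, mul_comm]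

/-- The norm form on an even number of coordinates is hyperbolic. -/
theorem exists_normSum_plus (hK : Fintype.card K = q ^ 2) (hF : Fintype.card F = q) (n : ℕ) :
    ∃ g : (Fin (n + n) → K) ≃ₗ[F] (Fin (n + n) ⊕ Fin (n + n) → F),
      ∀ u, normSum F (n + n) u = Cfsg.quadFormPlus (n + n) F (g u) := by
  classical
  rcases Nat.eq_zero_or_pos n with rfl | hn
  · haveI : IsEmpty (Fin (0 + 0)) := ⟨fun i => by simpa using i.2⟩
    refine ⟨LinearEquiv.ofSubsingleton _ _, fun u => ?_⟩
    simp [normSum, Cfsg.quadFormPlus]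
  obtain ⟨s, hs⟩ := FiniteField.norm_surjective F K (-1 : F)
  let L : (Fin n → K) →ₗ[F] (Fin (n + n) → K) :=
    { toFun := fun a => Fin.append a (fun i => s * a i)
      map_add' := fun a b => by
        ext i
        refine Fin.addCases (fun j => ?_) (fun j => ?_) i
        · simp only [Pi.add_apply, Fin.append_left]
        · simp only [Pi.add_apply, Fin.append_right, mul_add]
      map_smul' := fun c a => by
        ext i
        refine Fin.addCases (fun j => ?_) (fun j => ?_) i
        · simp only [Pi.smul_apply, RingHom.id_apply, Fin.append_left]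
        · simp only [Pi.smul_apply, RingHom.id_apply, Fin.append_right, Algebra.smul_def, mul_left_comm] }
  have hL : Function.Injective L := by
    intro a b hab
    ext i
    have := congrFun hab (Fin.castAdd n i)
    simpa [L] using this
  have hdim : finrank F (LinearMap.range L) = n + n := by
    rw [LinearMap.finrank_range_of_inj hL, finrank_coord hK hF]
    ring
  have h1 := exists_plus_of_singular (m := n + n) (by omega) (finrank_coord hK hF) (normQF (F := F) hK hF (n + n))
    (normQF_nondeg hK hF) (LinearMap.range L) (by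
      rintro _ ⟨a, rfl⟩
      rw [normQF_apply, normSum, Fin.sum_univ_add, ← Finset.sum_add_distrib]
      refine Finset.sum_eq_zero fun i _ => ?_
      show Algebra.norm F (Fin.append a (fun i => s * a i) (Fin.castAdd n i)) +
        Algebra.norm F (Fin.append a (fun i => s * a i) (Fin.natAdd n i)) = 0
      rw [Fin.append_left, Fin.append_right, map_mul, hs]
      ring) hdim
  exact h1

/-- An element fixed by the Frobenius map comes from the subfield. -/
theorem mem_range_of_pow_eq (hF : Fintype.card F = q) {x : K} (hx : x ^ q = x) : x ∈ (algebraMap F K).range := by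
  classical
  open Polynomial in
  let P : K[X] := X ^ q - X
  have hq1 : 1 < q := by
    rw [← hF]
    exact Fintype.one_lt_card
  have hP0 : P ≠ 0 := FiniteField.X_pow_card_sub_X_ne_zero K hq1
  have hPd : P.natDegree = q := FiniteField.X_pow_card_sub_X_natDegree_eq K hq1
  have hroot : ∀ y : K, y ^ q = y → y ∈ P.roots.toFinset := by
    intro y hy
    rw [Multiset.mem_toFinset, Polynomial.mem_roots hP0]
    simp [P, Polynomial.IsRoot, hy]
  have hsub : Finset.univ.image (algebraMap F K) ⊆ P.roots.toFinset := by
    intro y hy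
    obtain ⟨c, -, rfl⟩ := Finset.mem_image.1 hy
    exact hroot _ (algebraMap_pow_eq hF c)
  have hcard : P.roots.toFinset.card ≤ (Finset.univ.image (algebraMap F K)).card := by
    rw [Finset.card_image_of_injective _ (algebraMap F K).injective, Finset.card_univ, hF]
    calc _ ≤ Multiset.card P.roots := Multiset.toFinset_card_le _
      _ ≤ P.natDegree := Polynomial.card_roots' _
      _ = q := hPd
  have heq := Finset.eq_of_subset_of_card_le hsub hcard
  have hmem := hroot x hx
  rw [← heq] at hmem
  obtain ⟨c, -, hc⟩ := Finset.mem_image.1 hmem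
  exact ⟨c, hc⟩

theorem theta_facts (hK : Fintype.card K = q ^ 2) (hF : Fintype.card F = q) {a b : F}
    (hab : ∀ z₁ z₂ : F, z₁ ^ 2 + a * z₁ * z₂ + b * z₂ ^ 2 = 0 → z₁ = 0 ∧ z₂ = 0) {θ : K}
    (hθ : θ ^ 2 + algebraMap F K a * θ + algebraMap F K b = 0) :
    θ ^ q ≠ θ ∧ θ + θ ^ q = - algebraMap F K a ∧ θ * θ ^ q = algebraMap F K b := by
  have hne : θ ^ q ≠ θ := by
    intro h
    obtain ⟨t, rfl⟩ := mem_range_of_pow_eq hF h
    have h1 : algebraMap F K (t ^ 2 + a * t * 1 + b * 1 ^ 2) = 0 := by
      simp only [map_add, map_mul, map_pow, map_one]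
      linear_combination hθ
    have h2 := (hab t 1 ((algebraMap F K).injective (h1.trans (map_zero _).symm))).2
    exact one_ne_zero h2
  have h2 : (θ ^ q) ^ 2 + algebraMap F K a * θ ^ q + algebraMap F K b = 0 := by
    have h3 := congrArg (fun x => x ^ q) hθ
    simp only [add_pow_eq hF, mul_pow, algebraMap_pow_eq hF, zero_pow (q_ne_zero hF)] at h3
    rw [← h3]
    ring
  have h4 : θ + θ ^ q = - algebraMap F K a := by
    have h5 : (θ ^ q - θ) * (θ + θ ^ q + algebraMap F K a) = 0 := by
      linear_combination h2 - hθ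
    rcases mul_eq_zero.1 h5 with h6 | h6
    · exact absurd (sub_eq_zero.1 h6) hne
    · linear_combination h6
  refine ⟨hne, h4, ?_⟩
  have h7 : algebraMap F K a = -(θ + θ ^ q) := by rw [h4]; ring
  rw [h7] at hθ
  linear_combination -hθ

/-- The norm of `z₁ - z₂ θ` is the binary form. -/
theorem norm_binary (hK : Fintype.card K = q ^ 2) (hF : Fintype.card F = q) {a b : F} {θ : K}
    (h1 : θ + θ ^ q = - algebraMap F K a) (h2 : θ * θ ^ q = algebraMap F K b) (z₁ z₂ : F) :
    Algebra.norm F (algebraMap F K z₁ - algebraMap F K z₂ * θ) = z₁ ^ 2 + a * z₁ * z₂ + b * z₂ ^ 2 := by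
  apply (algebraMap F K).injective
  rw [nm_eq hK hF, sub_eq_add_neg, add_pow_eq hF, neg_pow_eq hF, mul_pow, algebraMap_pow_eq hF, algebraMap_pow_eq hF]
  simp only [map_add, map_mul, map_pow]
  rw [← h2, show algebraMap F K a = -(θ + θ ^ q) by rw [h1]; ring]
  ring

end Herm

end Cfsg.Agent.Lib.Embed
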